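import Cfsg.Agent.FM.G2.K24
import Cfsg.Agent.FM.C24.C13
import Cfsg.Agent.FM.C24.K13
import Cfsg.Agent.Fi.Ga

/-! The normaliser of a subgroup of order 13 in a group of type `M(24)`. -/

set_option autoImplicit false

namespace Cfsg.Agent.FM

open Cfsg Cfsg.Agent.GT Subgroup Mdl

theorem norm_dec {G : Type*} [Group G] [Finite G] {x g n : G} {p r : ℕ} (hx : orderOf x = p) (h1 : x ≠ 1)
    (h : g * x * g⁻¹ = x ^ r) (hr : ∀ k < p, k ≠ 0 → ∃ j < p, r ^ j % p = k) (hn : n ∈ N[zpowers x]) :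
    ∃ j : ℕ, (g ^ j)⁻¹ * n ∈ C1[x] := by
  obtain ⟨k, hk⟩ := PG.exists_nat_pow_of_mem_zpowers (conj_mem_of_mem_norm hn (mem_zpowers x))
  obtain ⟨j, -, e⟩ := hr (k % p) (Nat.mod_lt _ (hx ▸ orderOf_pos x)) fun h0 => h1 (by
    rw [← pow_mod_orderOf, hx, h0, pow_zero] at hk
    simpa using hk)
  have h2 : g ^ j * x * (g ^ j)⁻¹ = n * x * n⁻¹ := by
    rw [Fi.g8_conj_pow h, hk, ← pow_mod_orderOf, hx, e, ← hx, pow_mod_orderOf]
  exact ⟨j, mem_cent1.2 (by rw [mul_assoc, ← eq_mul_inv_iff_mul_eq.1 h2]; group)⟩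

theorem pow_mem_iff_even {G : Type*} [Group G] {H : Subgroup G} {h : G} (h1 : h ∉ H) (h2 : h ^ 2 ∈ H)
    (j : ℕ) : h ^ j ∈ H ↔ j % 2 = 0 := by
  rw [← Nat.div_add_mod j 2, pow_add, pow_mul, mul_mem_cancel_left (pow_mem h2 _), Nat.div_add_mod]
  rcases Nat.mod_two_eq_zero_or_one j with e | e <;> simp [e, h1]

theorem abs13 {G : Type*} [Group G] [Finite G] {a b c d x h : G} {T K : Subgroup G}
    (hT : T = closure {a, b, c, d}) (hK : K = C[T]) (hx : orderOf x = 13) (hxK : x ∈ K)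
    (hh : h * x * h⁻¹ = x ^ 2) (h12 : (h ^ 2) ^ 6 = 1) (ha : h * a * h⁻¹ = b) (hb : h * b * h⁻¹ = a)
    (hc : h * c * h⁻¹ = d) (hd : h * d * h⁻¹ = c) (ab : Commute a b) (ac : Commute a c) (db : Commute d b)
    (dc : Commute d c) (bc : ¬ Commute b c) (hC : ∀ H : Subgroup G, x ∈ H → T ≤ H → C1[x] ≤ H)
    (hCK : K ⊓ C1[x] ≤ zpowers x) :
    N[zpowers x] ≤ N[K] ∧ Nat.card ↥(K ⊓ N[zpowers x]) = 78 ∧ K ⊓ C[zpowers x] = zpowers x ∧
      (((K ⊓ N[zpowers x]) ⊔ T).subgroupOf N[zpowers x]).index = 2 := by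
  have x1 : x ≠ 1 := fun e => by simp [e] at hx
  have dec := fun n => norm_dec (n := n) hx x1 hh (by decide)
  have hN : h ∈ N[T] := mem_normalizer_of_conj_le (by
    rw [hT, MonoidHom.map_closure, closure_le]
    rintro _ ⟨s, hs, rfl⟩
    refine subset_closure ?_
    rcases hs with rfl | rfl | rfl | rfl <;> simp [ha, hb, hc, hd])
  have h2K : h ^ 2 ∈ K := by
    rw [hK, hT, centralizer_closure]
    have k : ∀ {s t : G}, h * s * h⁻¹ = t → h * t * h⁻¹ = s → s * h ^ 2 = h ^ 2 * s := fun e1 e2 => by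
      rw [← e1] at e2
      conv_lhs => rw [← e2]
      simp [sq, mul_assoc]
    rintro s (rfl | rfl | rfl | rfl)
    exacts [k ha hb, k hb ha, k hc hd, k hd hc]
  have KP : K ≤ N[closure {a, d}] := le_norm_of_cent (hK ▸ cent_anti (hT ▸ closure_mono (by
    rintro s (rfl | rfl) <;> simp)))
  have TP : T ≤ N[closure {a, d}] := by
    rw [hT, closure_le]
    rintro s (rfl | rfl | rfl | rfl)
    · exact le_normalizer (subset_closure (by simp))
    · exact cent_le_norm _ (by rw [centralizer_closure]; rintro t (rfl | rfl); exacts [ab, db])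
    · exact cent_le_norm _ (by rw [centralizer_closure]; rintro t (rfl | rfl); exacts [ac, dc])
    · exact le_normalizer (subset_closure (by simp))
  have hP : h ∉ N[closure {a, d}] := fun k => bc (by
    have h1 : closure {a, d} ≤ C1[c] := (closure_le _).2 (by
      rintro t (rfl | rfl); exacts [mem_cent1.2 ac, mem_cent1.2 dc])
    exact mem_cent1.1 (h1 (ha ▸ conj_mem_of_mem_norm k (subset_closure (by simp)))))
  have hhN : h ∈ N[zpowers x] := Fi.g8_mem_norm hh
  have e : K ⊓ N[zpowers x] = zpowers x ⊔ zpowers (h ^ 2) := by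
    refine le_antisymm (fun n hn => ?_) (sup_le (le_inf (zpowers_le.2 hxK) le_normalizer)
      (zpowers_le.2 ⟨h2K, pow_mem hhN 2⟩))
    obtain ⟨j, hj⟩ := dec n hn.2
    have j0 := (pow_mem_iff_even hP (KP h2K) j).1 (by
      simpa using mul_mem (KP hn.1) (inv_mem (hC _ (KP hxK) TP hj)))
    have e1 : h ^ j = (h ^ 2) ^ (j / 2) := by rw [← pow_mul]; congr 1; omega
    have := mul_mem (mem_sup_right (S := zpowers x) (pow_mem (mem_zpowers (h ^ 2)) (j / 2)))
      (mem_sup_left (hCK ⟨K.mul_mem (K.inv_mem (e1 ▸ K.pow_mem h2K _)) hn.1, hj⟩))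
    simpa [e1] using this
  refine ⟨fun n hn => ?_, ?_, ?_, ?_⟩
  · obtain ⟨j, hj⟩ := dec n hn
    have k : h ∈ N[K] := hK ▸ norm_le_norm_cent T hN
    simpa using mul_mem (pow_mem k j) (hC _ (le_normalizer hxK) (hK ▸ le_norm_cent le_normalizer) hj)
  · rw [e]
    exact (Fi.g8_frob (r := 2 ^ 2) (m := 6) hx (Fi.g8_conj_pow hh 2) h12 (by decide) (by decide)).1
  · rw [cent_zpowers]
    exact le_antisymm hCK (zpowers_le.2 ⟨hxK, mem_cent1.2 rfl⟩)
  · have h1 : h ∉ (K ⊓ N[zpowers x]) ⊔ T := fun k => hP (sup_le (inf_le_left.trans KP) TP k)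
    have h2 : h ^ 2 ∈ (K ⊓ N[zpowers x]) ⊔ T := mem_sup_left ⟨h2K, pow_mem hhN 2⟩
    refine index_eq_two_iff'.2 ⟨⟨h, hhN⟩, fun n => ?_⟩
    obtain ⟨j, hj⟩ := dec n n.2
    have h3 := hC ((K ⊓ N[zpowers x]) ⊔ T) (mem_sup_left ⟨hxK, le_normalizer (mem_zpowers x)⟩) le_sup_right hj
    have e1 : (n : G) = h ^ j * ((h ^ j)⁻¹ * n) := by simp
    rw [mem_subgroupOf, mem_subgroupOf, coe_mul, e1, ← mul_assoc, ← pow_succ', mul_mem_cancel_right h3,
      mul_mem_cancel_right h3, pow_mem_iff_even h1 h2, pow_mem_iff_even h1 h2]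
    rcases Nat.mod_two_eq_zero_or_one j with e | e <;> simp [Nat.add_mod, e]

namespace F24

def x13 : Ex := .pow (.w [17, 10]) 2
def h13 : Ex := .ps [233363, 27841, 24487, 716, 4348, 31545, 3529, 69, 23, 2, 38, 13, 65, 3513, 3510]

variable {G : Type*} [Group G] [Finite G] {D : Set G} (M : Mdl G D cd)

omit [Finite G] in
theorem fixLg_eq : C[closure {M.pt 31721, M.pt 23220, M.pt 100651, M.pt 90675}] = M.FixL Lg := by
  rw [centralizer_closure, FixL]
  congr 1
  ext s
  simp only [Lg, Set.mem_image, Set.mem_ofPred_eq, List.mem_cons, List.not_mem_nil, or_false, Set.mem_insert_iff,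
    Set.mem_singleton_iff, exists_eq_or_imp, exists_eq_left, eq_comm (a := s)]
  tauto

omit [Finite G] in
theorem ord_x13 : orderOf (M.ev x13) = 13 := M.orderOf_ev (by norm_num) (by decide +kernel) (by decide +kernel)

omit [Finite G] in
theorem x13_mem : M.ev x13 ∈ M.FixL Lg :=
  M.allFix_spec (Gs := [x13]) (by decide +kernel) (by decide +kernel) _ List.mem_cons_self

theorem main13 {T K : Subgroup G} (hT : T = closure {M.pt 31721, M.pt 23220, M.pt 100651, M.pt 90675})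
    (hK : K = C[T]) : N[zpowers (M.ev x13)] ≤ N[K] ∧ Nat.card ↥(K ⊓ N[zpowers (M.ev x13)]) = 78 ∧
      K ⊓ C[zpowers (M.ev x13)] = zpowers (M.ev x13) ∧
      (((K ⊓ N[zpowers (M.ev x13)]) ⊔ T).subgroupOf N[zpowers (M.ev x13)]).index = 2 := by
  have e : K = M.FixL Lg := by rw [hK, hT, fixLg_eq]
  have k : ∀ p q, p < cd.n → cd.ap h13 p = q → M.ev h13 * M.pt p * (M.ev h13)⁻¹ = M.pt q := fun p q hp h => by
    rw [← M.pt_ac _ hp, ← M.ap_eq _ hp, h]
  have cm : ∀ p q, p < cd.n → q < cd.n → cd.comm p q = true → Commute (M.pt p) (M.pt q) :=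
    fun p q hp hq h => (M.comm_iff hp hq).1 h
  refine abs13 (h := M.ev h13) hT hK (ord_x13 M) (e ▸ x13_mem M)
    (M.eq_of_eqE (a := .mul (.mul h13 x13) (.inv h13)) (b := .pow x13 2) (by decide +kernel))
    (M.eq_of_eqE (a := .pow (.pow h13 2) 6) (b := .one) (by decide +kernel))
    (k _ _ (by decide) (by decide +kernel)) (k _ _ (by decide) (by decide +kernel))
    (k _ _ (by decide) (by decide +kernel)) (k _ _ (by decide) (by decide +kernel))
    (cm _ _ (by decide) (by decide) (by decide +kernel)) (cm _ _ (by decide) (by decide) (by decide +kernel))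
    (cm _ _ (by decide) (by decide) (by decide +kernel)) (cm _ _ (by decide) (by decide) (by decide +kernel))
    (fun h => absurd ((M.comm_iff (by decide) (by decide)).2 h) (by decide +kernel)) (fun H h1 h2 => ?_) ?_
  · have := (C24.C13.res M (K := H) fun a ha => by
      simp only [C24.C13.As, List.mem_cons, List.not_mem_nil, or_false] at ha
      rcases ha with rfl | rfl | rfl | rfl | rfl
      · exact h1
      all_goals rw [M.ev_ps1 (by decide)]; exact h2 (hT ▸ subset_closure (by simp))).1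
    rw [FixL_nil, inf_top_eq] at this
    exact (CS_one x13).ge.trans this
  · rw [e, inf_comm, ← CS_one]
    exact (C24.K13.res M fun a ha => List.mem_singleton.1 ha ▸ mem_zpowers _).1

end F24

end Cfsg.Agent.FM
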