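import Cfsg.Agent.FM.G2.Z4d
import Cfsg.Agent.F4.Top
import Cfsg.Agent.F4.Glue
import Cfsg.Agent.Fi.Ge24

/-! The centraliser of a product of four commuting transpositions in a group of type `M(24)`. -/

set_option autoImplicit false

namespace Cfsg.Agent.FM

open Cfsg Cfsg.Agent.GT Cfsg.Agent.TT Subgroup Mdl Cfsg.Agent.Fi

variable {G : Type*} [Group G] {D : Set G}

theorem Mdl.ps_even {c : CD} (M : Mdl G D c) {L : Subgroup G} (hd : ∀ a ∈ D, ∀ b ∈ D, a * b ∈ L) :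
    ∀ l : List ℕ, (∀ p ∈ l, p < c.n) → l.length % 2 = 0 → M.ev (.ps l) ∈ L
  | [], _, _ => one_mem _
  | [_], _, h => absurd h (by simp)
  | a :: b :: l, h, e => by
    simp only [List.forall_mem_cons] at h
    have := ps_even M hd l h.2.2 (by simp only [List.length_cons] at e; omega)
    rw [ev_ps] at this ⊢
    simpa [M.ptx_eq h.1, M.ptx_eq h.2.1, mul_assoc] using mul_mem (hd _ (M.mem a h.1) _ (M.mem b h.2.1)) this

namespace F24

def x4 : Ex := .ps [31671, 3510, 693, 0]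

variable [Finite G] (M : Mdl G D cd)

theorem z4_H : C1[M.ev x4] = Tl (gE M C24.Z4.As) 12 0 ∧ Nat.card C1[M.ev x4] = 321052999680 := by
  have r := C24.Z4.res M (K := Tl (gE M C24.Z4.As) 12 0) fun a ha => gE_mem M ha
  rw [FixL_nil, inf_top_eq, show M.CS C24.Z4.Xs C24.Z4.Zs = _ from CS_one x4] at r
  exact ⟨le_antisymm r.1 (gE_le M fun a ha => (CS_one x4).le (C24.Z4.gens_CS M a ha)), r.2⟩

theorem z4_Q : ∃ Q : Subgroup G, IsExtraspecial 2 Q ∧ Nat.card Q = 2 ^ 13 ∧ Q ≤ C1[M.ev x4] ∧ C1[M.ev x4] ≤ N[Q] ∧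
    C[Q] ≤ Q ∧ Op 2 C1[M.ev x4] ≤ Q ∧ Q ≤ M.CS C24.Z4N.Xs C24.Z4N.Zs := by
  have := Fact.mk Nat.prime_two
  have n1 := (z4_H M).1
  have P := pcRw_spec M z4_pc
  have hc := P.pc.card_ge Nat.prime_two (witChk_spec M z4_wit)
  obtain ⟨π, T⟩ := P.ts (a := 0) (m := 12) hc (by omega) (by decide +kernel) (by decide +kernel)
  obtain ⟨π', T'⟩ := P.ts (a := 0 + 12) (m := 1) hc le_rfl (by decide +kernel) (by decide +kernel)
  have cj := fun k hk => cjRw_spec M (z4_cj k hk)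
  obtain ⟨ρ, -, r2, -, -, r5⟩ := T.rep n1 cj (by decide +kernel)
  have b9 : Tl (gE M C24.Z4Q.Xs) 13 13 = ⊥ := Tl.bot le_rfl
  have l8 := P.le_comm (a := 12) (by omega) (by decide +kernel)
  have pg := P.pc.isPGroup Nat.prime_two 0
  obtain ⟨s1, s2⟩ := g8_special (Z := Tl (gE M C24.Z4Q.Xs) 13 12) Nat.prime_two pg (Tl.anti (by omega))
    (P.lay (by decide +kernel)) ((P.lay (b := 13) (by decide +kernel)).trans b9.le) (fun x => T.pow_mem) l8
    fun x hx hn => by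
      have := P.nd (ns := 12) T T' (by decide +kernel) (by decide +kernel) le_rfl (by omega) (by decide +kernel)
        z4_nd hx hn
      rwa [b9] at this
  have ex : IsExtraspecial 2 (Tl (gE M C24.Z4Q.Xs) 13 0) := ⟨s1, by
    rw [← card_map_inj (subtype_injective _), map_subtype_center, s2, P.pc.card_eq two_pos hc (by omega)]; rfl⟩
  have m8 : M.ev x4 ∈ Tl (gE M C24.Z4Q.Xs) 13 12 := Tl.mem (g := gE M C24.Z4Q.Xs) le_rfl (by omega)
  have q1 : Tl (gE M C24.Z4Q.Xs) 13 0 ≤ C1[M.ev x4] := fun g hg => mem_cent1.2 ((s2.ge m8).2 g hg)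
  have q2 := n1.le.trans (g8_tl_norm (a := 0) cj fun _ _ _ _ _ => by simp)
  have q3 : C[Tl (gE M C24.Z4Q.Xs) 13 0] ≤ Tl (gE M C24.Z4Q.Xs) 13 0 := fun x hx =>
    (C24.Z4Q.res M (List.forall_mem_singleton.2 (Tl.anti (by omega) m8))).1
      ⟨⟨fun a ha => (hx _ (gE_mem M ha) : Commute _ _).symm, by simp [C24.Z4Q.Zs]⟩, by simp⟩
  refine ⟨_, ex, P.pc.card_eq two_pos hc (Nat.zero_le _), q1, q2, q3, ?_,
    gE_le M fun a ha => C24.Z4N.gens_CS M a (List.mem_of_mem_take (i := 13) ha)⟩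
  rw [← PG.sup_cent_eq_of_extraspecial ex (le_Op q1 q2 pg) ?_]
  · exact sup_le le_rfl (inf_le_right.trans q3)
  · rw [commutator_comm, commutator_le]
    rintro _ ⟨x, hx, rfl⟩ y hy
    exact l8 ((r2 x).1 (r5 _ _ (by omega) z4_irr hx) y hy)

theorem z4_main {L C : Subgroup G} [L.Normal] (hd : F4.Der D L) (hC : C = L ⊓ C1[M.ev x4]) :
    ∃ (Q : Subgroup C) (_ : Q.Normal), generalizedFittingSubgroup C = Q ∧ IsExtraspecial 2 Q ∧ Nat.card Q = 2 ^ 13 ∧
      ∃ (N M : Subgroup C) (_ : N.Normal) (_ : M.Normal), Q ≤ N ∧ N ≤ M ∧ Nat.card N = 3 * Nat.card Q ∧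
        (∃ (K : Type) (_ : Field K) (_ : Fintype K), Fintype.card K = 9 ∧
          Nonempty (M ⧸ N.subgroupOf M ≃* PSU 4 K 3)) ∧ M.index = 2 := by
  have := Fact.mk Nat.prime_two
  subst hC
  obtain ⟨Q, ex, q0, q1, q2, q3, q4, q5⟩ := z4_Q M
  obtain ⟨o1, o2, K, _, _, hK, ⟨o3⟩⟩ := o6m
  have cH := (z4_H M).2
  obtain ⟨φ, hφ⟩ := M.blk_hom (by decide) bn6m (by decide) z4_tab z4_act (H := C1[M.ev x4])
    ((z4_H M).1.le.trans (gE_le M fun a ha => subset_closure ⟨a, ha, rfl⟩))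
  have r := C24.Z4N.res M (K := L) fun a ha => by
    obtain ⟨l, hl, rfl⟩ := List.mem_map.1 (show a ∈ z4l.map .ps from ha)
    clear ha
    exact M.ps_even hd.mul l (by revert l; decide +kernel) (by revert l; decide +kernel)
  rw [FixL_nil, inf_top_eq] at r
  have k1 : φ.ker.map (C1[M.ev x4]).subtype ≤ M.CS C24.Z4N.Xs C24.Z4N.Zs := by
    rintro _ ⟨g, hg, rfl⟩
    refine ⟨fun _ h => absurd h List.not_mem_nil, fun Z hZ => ?_⟩
    rw [z4_Zs, lmap_eq] at hZ
    obtain ⟨x, hx, rfl⟩ := List.mem_map.1 hZ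
    exact hφ g hg x (by revert x; decide) (by revert x; decide +kernel)
  have : Finite _ := Nat.finite_of_card_ne_zero (o1.trans_ne (by decide))
  obtain ⟨-, k2⟩ := g8_surj_of_card φ (k := 24576) (by rw [cH, o1]) (by
    rw [← card_map_inj (subtype_injective _)]; exact (card_le_of_le k1).trans r.2.le)
  have k3 := eq_of_le_of_card_ge k1 (by rw [card_map_inj (subtype_injective _), k2, r.2])
  let ψ := φ.comp (inclusion (inf_le_right : L ⊓ C1[M.ev x4] ≤ _))
  have k4 : ψ.ker = (M.CS C24.Z4N.Xs C24.Z4N.Zs).subgroupOf _ := Subgroup.ext fun g =>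
    ⟨fun h => k1 ⟨_, h, rfl⟩, fun h => by
      obtain ⟨y, hy, e⟩ := k3.ge h
      rwa [show y = inclusion inf_le_right g from Subtype.ext e] at hy⟩
  have k5 : Nat.card ψ.ker = 24576 := by
    rw [k4, card_subgroupOf (le_inf r.1 (k3.ge.trans (map_subtype_le _))), r.2]
  have k6 := F4.card_inf_of_index_two hd.idx (H := C1[M.ev x4])
    ((CS_one x4).le (memCS_spec (ls := []) (Gs := [.ps [0]]) (by decide +kernel) _ List.mem_cons_self))
    (by rw [M.ev_ps1 (by decide)]; exact hd.out _ (M.mem 0 (by decide)))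
  obtain ⟨N, _, n1, n2, ⟨n3⟩⟩ := idx2_struct bn6m (by simp) o2 ψ (by
    have a := ψ.range.card_mul_index
    have b := ψ.ker.card_mul_index
    rw [index_ker, k5] at b
    rw [o1, show Nat.card ψ.range = 6531840 by omega] at a
    omega)
  have hn : C1[M.ev x4] ≤ N[L ⊓ C1[M.ev x4]] := le_norm_inf (le_norm_of_normal.trans' le_top) le_normalizer
  have e := (map_subtype_fstar _).trans (g8_fstar_p Nat.prime_two (le_inf (q5.trans r.1) q1) (inf_le_right.trans q2)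
    ex.1.1 (inf_le_right.trans q3) ((le_Op ((Op_le _).trans inf_le_right) (hn.trans (norm_le_norm_Op _))
      (Op_isPGroup _)).trans q4))
  have c : Nat.card (generalizedFittingSubgroup ↥(L ⊓ C1[M.ev x4])) = 2 ^ 13 := by
    rw [← card_map_inj (subtype_injective _), e, q0]
  exact ⟨_, by
      rw [← comap_map_eq_self_of_injective (subtype_injective _) (generalizedFittingSubgroup _), e]
      exact normal_subgroupOf (inf_le_right.trans q2), rfl, g8_extra_map e ex, c, ψ.ker, N, inferInstance, ‹_›,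
    fun g hg => k4.ge (q5 (e.le ⟨g, hg, rfl⟩)), n1, by rw [k5, c]; rfl, ⟨K, _, _, hK, ⟨n3.trans o3⟩⟩, n2⟩

omit [Finite G] in
include M in
theorem wlog_x4 {l : List G} (hl : CL D l) (e : l.length = 4) : ∃ N : Mdl G D cd, N.ev x4 = l.prod := by
  obtain ⟨g, hg⟩ := g8_tr24_4 M l hl e
  refine ⟨M.conj g⁻¹, ?_⟩
  rw [conj_ev, x4, M.ev_ps' (by decide +kernel), ← hg, ← map_list_prod, MulAut.conj_apply]
  group

end F24

end Cfsg.Agent.FM
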